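import Mathlib
import Cfsg.Agent.Lib.Helper85.USim.Defs
import Cfsg.Agent.Lib.Helper40.Elusive
import Cfsg.Agent.Lib.Helper45.HermBasic

/-!
# USIM (S5982), package [10] `pDIrr`: the derangement with one irreducible block.
-/

set_option autoImplicit false
open scoped MatrixGroups Matrix

namespace Cfsg.Agent.Lib.Helper61.USim

open Polynomial Cfsg.Agent.Lib.Helper40 Cfsg.Agent.Lib.Helper85.USim

universe u

/-- The element `A ⊕ 1` with `A` irreducible of order `r`: exact characteristic polynomial. -/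
theorem one_block {F : Type u} [Field F] [Fintype F] {p q : ℕ} [Fact p.Prime] [CharP F p]
    (hF : Fintype.card F = q) (n r : ℕ) [Fact r.Prime] (hrp : r ≠ p)
    (hi : 2 ≤ orderOf (q : ZMod r)) (hin : orderOf (q : ZMod r) ≤ n) :
    ∃ (g : GL (Fin n) F) (π : F[X]), g ^ r = 1 ∧ (g : Matrix (Fin n) (Fin n) F).det = 1 ∧
      π.Monic ∧ Irreducible π ∧ π.natDegree = orderOf (q : ZMod r) ∧ π ∣ (X ^ r - 1 : F[X]) ∧
      (g : Matrix (Fin n) (Fin n) F).charpoly = (X - C 1) ^ (n - orderOf (q : ZMod r)) * π ∧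
      (∀ z : F, z ^ r = 1 → z = 1) := by
  classical
  have hr : r.Prime := Fact.out
  obtain ⟨S, hS, ⟨π₀, hπ₀⟩⟩ := Elusive.exists_factors hF r hrp
  set i := orderOf (q : ZMod r) with hidef
  let a : S → ℕ := fun π => if π.1 = π₀ then 1 else 0
  have hsum : ∑ π, a π = 1 := by
    rw [Finset.sum_eq_single ⟨π₀, hπ₀⟩]
    · simp [a]
    · intro b _ hb
      have : b.1 ≠ π₀ := fun h => hb (Subtype.ext h)
      simp [a, this]
    · intro h
      exact absurd (Finset.mem_univ _) h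
  have hprod : ∏ π : S, π.1 ^ a π = π₀ := by
    rw [Finset.prod_eq_single ⟨π₀, hπ₀⟩]
    · simp [a]
    · intro b _ hb
      have : b.1 ≠ π₀ := fun h => hb (Subtype.ext h)
      simp [a, this]
    · intro h
      exact absurd (Finset.mem_univ _) h
  have ha : i * ∑ π, a π ≤ n := by
    rw [hsum, mul_one]
    exact hin
  obtain ⟨g, hg, hχ⟩ := PrimeOrderGL.exists_GL_chi p hS hr.pos a ha
  have hgr : (g : Matrix (Fin n) (Fin n) F) ^ r = 1 := by
    rw [← Units.val_pow_eq_pow_val, hg]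
    rfl
  have hq2 : 2 ≤ q := by
    rw [← hF]
    exact Fintype.one_lt_card
  have h3 : ¬ r ∣ q - 1 := by
    intro h
    have h' := (Elusive.dvd_pow_sub_one_iff q r (by omega) 1).1 (by simpa using h)
    have := Nat.le_of_dvd one_pos h'
    omega
  have h4 : Nat.gcd r (q - 1) = 1 := (Nat.Prime.coprime_iff_not_dvd hr).2 h3
  have hroot : ∀ z : F, z ^ r = 1 → z = 1 := by
    intro z h1
    have h0 : z ≠ 0 := by
      intro h
      rw [h, zero_pow hr.ne_zero] at h1
      exact zero_ne_one h1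
    have h2 : z ^ (q - 1) = 1 := by
      rw [← hF]
      exact FiniteField.pow_card_sub_one_eq_one _ h0
    have h5 := pow_gcd_eq_one.2 ⟨h1, h2⟩
    rwa [h4, pow_one] at h5
  have hdet : (g : Matrix (Fin n) (Fin n) F).det = 1 :=
    hroot _ (by rw [← Matrix.det_pow, hgr, Matrix.det_one])
  refine ⟨g, π₀, hg, hdet, hS.monic π₀ hπ₀, hS.irred π₀ hπ₀, hS.deg π₀ hπ₀, hS.dvd π₀ hπ₀, ?_,
    hroot⟩
  rw [hχ]
  unfold PrimeOrderGL.chi
  rw [hprod, hsum, mul_one]

theorem reverse_pow_dom {R : Type*} [Semiring R] [NoZeroDivisors R] (f : R[X]) (k : ℕ) :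
    (f ^ k).reverse = f.reverse ^ k := by
  induction k with
  | zero => rw [pow_zero, pow_zero, ← C_1, reverse_C]
  | succ k ih => rw [pow_succ, pow_succ, reverse_mul_of_domain, ih]

theorem reverse_X_sub_one {F : Type*} [Field F] :
    (X - C 1 : F[X]).reverse = -(X - C 1) := by
  have h : (X - C 1 : F[X]) = 1 * X + C (-1) := by
    rw [one_mul, C_neg, sub_eq_add_neg]
  have e1 : ((1 : F[X]) * X).reverse = 1 := by rw [reverse_mul_X, ← C_1, reverse_C]
  have e2 : ((1 : F[X]) * X).natDegree = 1 := by rw [one_mul, natDegree_X]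
  rw [h, reverse_add_C, e1, e2, pow_one, C_neg, C_1]
  ring

/-- [10] `pDIrr`. -/
theorem pDIrr (hChar : PChar.{u}) (hRoot : PRoot.{u}) : PDIrr.{u} := by
  intro F _ _ p _ _ q₀ n r _ hF hrp hi hin hne
  classical
  have hr : r.Prime := Fact.out
  have hp : p.Prime := Fact.out
  obtain ⟨x, π, hx, hdet, hmon, hirr, hdeg, hdvd, hχ, hnoroot⟩ :=
    one_block (F := F) hF n r hrp hi hin
  set i := orderOf (((q₀ ^ 2 : ℕ) : ℕ) : ZMod r) with hidef
  set M : Matrix (Fin n) (Fin n) F := (x : Matrix (Fin n) (Fin n) F) with hMdef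
  have hxr : M ^ r = 1 := by
    rw [hMdef, ← Units.val_pow_eq_pow_val, hx]
    rfl
  have hq0 : ((q₀ : ℕ) : ZMod r) ≠ 0 := by
    intro h
    rw [ZMod.natCast_eq_zero_iff] at h
    have h1 : r ∣ Fintype.card F := by
      rw [hF]
      exact Dvd.dvd.pow h two_ne_zero
    obtain ⟨f, -, hf⟩ := FiniteField.card F p
    rw [hf] at h1
    exact hrp ((Nat.prime_dvd_prime_iff_eq hr hp).1 (hr.dvd_of_dvd_pow h1))
  refine ⟨x, (mem_SLn_iff x).2 hdet, ⟨1, ?_⟩, ?_, ?_⟩
  · rw [hx]
    simp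
  · intro z hz
    have h1 : π ∣ (Matrix.toLin' M).charpoly := by
      rw [Matrix.charpoly_toLin', hχ]
      exact Dvd.intro_left _ rfl
    have h2 : aeval (Matrix.toLin' M) (X - C z) = 0 := by
      rw [Diag.aeval_toLin']
      have : aeval M (X - C z) = 0 := by
        simp [show M = z • (1 : Matrix (Fin n) (Fin n) F) from hz, Algebra.algebraMap_eq_smul_one]
      rw [this, map_zero]
    have h3 := Elusive.irr_dvd _ π hirr h1 _ h2
    have h4 := natDegree_le_of_dvd h3 (X_sub_C_ne_zero z)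
    rw [natDegree_X_sub_C] at h4
    omega
  · intro g _ hmem
    apply hne
    have hc := hChar q₀ n r hF hnoroot (Cfsg.Agent.Lib.Helper45.sigmaQ hF) (fun a => rfl) x g hxr
      hdet hmem
    rw [hχ, Polynomial.map_mul, Polynomial.map_pow, Polynomial.map_sub, map_X, map_C, map_one,
      reverse_mul_of_domain, reverse_pow_dom, reverse_X_sub_one] at hc
    have hc2 : (X - C 1 : F[X]) ^ (n - i) * π.map (Cfsg.Agent.Lib.Helper45.sigmaQ hF) =
        (X - C 1) ^ (n - i) * (C ((-1 : F) ^ n * (-1) ^ (n - i)) * π.reverse) := by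
      have e : (-(X - C 1 : F[X])) ^ (n - i) = C ((-1 : F) ^ (n - i)) * (X - C 1) ^ (n - i) := by
        rw [neg_pow, C_pow, C_neg, C_1]
      rw [hc, e, C_mul]
      ring
    have hc3 := mul_left_cancel₀ (pow_ne_zero (n - i) (X_sub_C_ne_zero (1 : F))) hc2
    have hassoc : Associated (π.map (Cfsg.Agent.Lib.Helper45.sigmaQ hF)) π.reverse := by
      rw [hc3]
      exact associated_unit_mul_left _ _
        (Polynomial.isUnit_C.2 (isUnit_iff_ne_zero.2 (by simp)))
    exact hRoot q₀ r hF hq0 (Cfsg.Agent.Lib.Helper45.sigmaQ hF) (fun a => rfl) π hmon hirr hdvd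
      hdeg (by rw [hdeg]; exact hi) hassoc

end Cfsg.Agent.Lib.Helper61.USim
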